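import Cfsg.Agent.H36.Assemble
import Cfsg.Agent.H35.Quartic
import Cfsg.Agent.H39.Functor
set_option linter.all false

/-!
# Weak closure and the K-infinity subgroups
-/

set_option autoImplicit false

universe u

namespace Cfsg.Agent.H36.KWeak

open Subgroup Cfsg.Agent.Lib.GoldschmidtFusion Cfsg.Agent.H36.WeakClosure Cfsg.Agent.H36.Assemble

variable {G : Type u} [Group G]

/-- The quadratic element in relative form, for a functor compatible with injections. -/
theorem exists_quadratic [Finite G] {p : ℕ} [Fact p.Prime] (W : ∀ (Q : Type u) [Group Q], Subgroup Q)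
    (hmap : ∀ (H : Subgroup G) (S : Subgroup ↥H),
      (inducedFunctor W S).map H.subtype = inducedFunctor W (S.map H.subtype))
    (hK : ∀ (H : Subgroup G) (S : Subgroup ↥H), ¬ (inducedFunctor W S).Normal →
      ¬ (inducedFunctor kInfLower S).Normal ∨ ¬ (inducedFunctor kInfUpper S).Normal)
    (H T : Subgroup G) (hTH : T ≤ H) (hTp : IsPGroup p ↥T) (hTi : ¬ p ∣ T.relIndex H)
    (hN : ¬ H ≤ Subgroup.normalizer ((inducedFunctor W T : Subgroup G) : Set G)) :
    ∃ g : G, g ∈ T ∧ g ∉ Cfsg.pCoreOf p H ∧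
        ⁅⁅Cfsg.pCoreOf p H ⊓ Subgroup.centralizer ((Cfsg.pCoreOf p H : Subgroup G) : Set G), Subgroup.zpowers g⁆,
          Subgroup.zpowers g⁆ = ⊥ := by
  have hinj : Function.Injective H.subtype := H.subtype_injective
  have hTm : (T.subgroupOf H).map H.subtype = T := map_subgroupOf_eq_of_le hTH
  have hSp' : IsPGroup p (T.subgroupOf H) := hTp.comap_of_injective H.subtype hinj
  let P : Sylow p ↥H := hSp'.toSylow hTi
  have hTS : pCore p ↥H ≤ T.subgroupOf H := Cfsg.Agent.Lib.Cores.pCore_le_sylow P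
  have hn : ¬ (inducedFunctor W (T.subgroupOf H)).Normal := by
    intro hn
    apply hN
    have h1 := map_normalizer_subtype (inducedFunctor W (T.subgroupOf H))
    rw [hmap, hTm, normalizer_eq_top_iff.2 hn, ← MonoidHom.range_eq_map, range_subtype] at h1
    exact inf_eq_left.1 h1.symm
  obtain ⟨g, hgT, hgO, -, hq, -⟩ := Cfsg.Agent.H35.Quartic.exists_quartic hTS (hK H _ hn)
  refine ⟨g, hgT, ?_, ?_⟩
  · rintro ⟨y, hy, hyg⟩
    exact hgO ((Subtype.ext hyg : y = g) ▸ hy)
  · have h1 := congrArg (Subgroup.map H.subtype) hq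
    rw [map_commutator, map_commutator, MonoidHom.map_zpowers, map_inf_centralizer, Subgroup.map_bot] at h1
    exact h1

theorem exists_quadratic_lower [Finite G] {p : ℕ} [Fact p.Prime]
    (H T : Subgroup G) (hTH : T ≤ H) (hTp : IsPGroup p ↥T) (hTi : ¬ p ∣ T.relIndex H)
    (hN : ¬ H ≤ Subgroup.normalizer ((inducedFunctor kInfLower T : Subgroup G) : Set G)) :
    ∃ g : G, g ∈ T ∧ g ∉ Cfsg.pCoreOf p H ∧
        ⁅⁅Cfsg.pCoreOf p H ⊓ Subgroup.centralizer ((Cfsg.pCoreOf p H : Subgroup G) : Set G), Subgroup.zpowers g⁆,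
          Subgroup.zpowers g⁆ = ⊥ :=
  exists_quadratic (fun Q [Group Q] => kInfLower Q)
    (fun H S => Cfsg.Agent.H35.KSeq.inducedLower_map H.subtype H.subtype_injective S)
    (fun _ _ h => Or.inl h) H T hTH hTp hTi hN

theorem isConjugacyFunctor_lower [Finite G] (p : ℕ) [Fact p.Prime] :
    IsConjugacyFunctor p (inducedFunctor (G := G) kInfLower) :=
  Cfsg.Agent.H39.isConjugacyFunctor_induced (Cfsg.Agent.H35.KSeq.isCharPFunctor_kInfLower p)

theorem center_le_lower [Finite G] (p : ℕ) [Fact p.Prime] :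
    ∀ P : Subgroup G, IsPGroup p ↥P → P ⊓ Subgroup.centralizer ((P : Subgroup G) : Set G) ≤
      inducedFunctor kInfLower P := by
  intro P hP x hx
  have h1 := Cfsg.Agent.H35.KSeq.center_le_kInfLower hP
  refine ⟨⟨x, hx.1⟩, h1 ?_, rfl⟩
  rw [mem_center_iff]
  intro y
  exact Subtype.ext (mem_centralizer_iff.1 hx.2 y y.2)

omit [Group G] in
theorem iterCommutator_eq_bot {G : Type u} [Group G] {A : Subgroup G} {g : G}
    (h : ⁅⁅A, zpowers g⁆, zpowers g⁆ = ⊥) {U : Subgroup G} (hU : U ≤ A) {n : ℕ} (hn : 2 ≤ n) :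
    iterCommutator U (zpowers g) n = ⊥ := by
  obtain ⟨k, rfl⟩ := Nat.exists_eq_add_of_le hn
  induction k with
  | zero =>
    rw [← le_bot_iff, ← h]
    exact commutator_mono (commutator_mono hU le_rfl) le_rfl
  | succ k ih =>
    have : iterCommutator U (zpowers g) (2 + (k + 1)) = ⁅iterCommutator U (zpowers g) (2 + k), zpowers g⁆ := rfl
    rw [this, ih (by omega), commutator_bot_left]

end Cfsg.Agent.H36.KWeak
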